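import Mathlib
import Cfsg.Agent.Zsigmondy.SylowLinear
import Cfsg.Agent.Classical.Symp.Card
import Cfsg.Agent.Classical.Symp.Blocks

/-! Sylow `r`-subgroups of `Sp_{2n}(q)` for odd primes `r > n`. -/

set_option autoImplicit false

open Matrix

namespace CfsgLib.Zsigmondy.SylowSymplectic

open CfsgLib.Zsigmondy.SylowLinear

/-- The split torus of `SL_2`. -/
def diagTorus (K : Type*) [Field K] : Kˣ →* Matrix.SpecialLinearGroup (Fin 2) K where
  toFun x := ⟨!![(x : K), 0; 0, ((x⁻¹ : Kˣ) : K)], by simp [Matrix.det_fin_two]⟩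
  map_one' := Subtype.ext (by
    ext i j
    fin_cases i <;> fin_cases j <;> simp)
  map_mul' x y := Subtype.ext (by
    show (!![((x * y : Kˣ) : K), 0; 0, (((x * y)⁻¹ : Kˣ) : K)] : Matrix (Fin 2) (Fin 2) K) =
      !![(x : K), 0; 0, ((x⁻¹ : Kˣ) : K)] * !![(y : K), 0; 0, ((y⁻¹ : Kˣ) : K)]
    rw [Matrix.mul_fin_two]
    ext i j
    fin_cases i <;> fin_cases j <;> simp [mul_comm])

theorem diagTorus_injective (K : Type*) [Field K] : Function.Injective (diagTorus K) := by
  intro x y h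
  have h' : (x : K) = (y : K) :=
    congrArg (fun A : Matrix.SpecialLinearGroup (Fin 2) K => A.1 0 0) h
  exact Units.ext h'

/-- A cyclic `r`-subgroup of `SL_2(K)` inside a split or a nonsplit torus. -/
theorem exists_hom_sl2 {K : Type*} [Field K] [Finite K] {r v : ℕ} [hr : Fact r.Prime]
    (h : r ^ v ∣ Nat.card K - 1 ∨ (r ^ v ∣ Nat.card K ^ 2 - 1 ∧ ¬ r ∣ Nat.card K - 1)) :
    ∃ f : Multiplicative (ZMod (r ^ v)) →* Matrix.SpecialLinearGroup (Fin 2) K,
      Function.Injective f := by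
  rcases h with h | ⟨h, hnd⟩
  · obtain ⟨f, hf⟩ := exists_hom_units (L := K) h
    exact ⟨(diagTorus K).comp f, (diagTorus_injective K).comp hf⟩
  obtain ⟨p, hp⟩ := CharP.exists K
  have : Fact p.Prime := ⟨CharP.char_is_prime K p⟩
  let L := FiniteField.Extension K p 2
  obtain ⟨f, hf⟩ := exists_hom_units (L := L) (N := r ^ v)
    (by rw [FiniteField.natCard_extension]; exact h)
  let b : Module.Basis (Fin 2) K L :=
    Module.finBasisOfFinrankEq K L (FiniteField.finrank_extension K p 2)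
  let φ : Multiplicative (ZMod (r ^ v)) →* GL (Fin 2) K :=
    (Units.map (Algebra.leftMulMatrix b).toRingHom.toMonoidHom).comp f
  have hφ : Function.Injective φ :=
    (Units.map_injective (Algebra.leftMulMatrix_injective b)).comp hf
  have hdet : ∀ c, Matrix.GeneralLinearGroup.det (φ c) = 1 := by
    intro c
    rw [← orderOf_eq_one_iff]
    have h1 : orderOf (Matrix.GeneralLinearGroup.det (φ c)) ∣ r ^ v :=
      (orderOf_map_dvd (Matrix.GeneralLinearGroup.det.comp φ) c).trans
        (orderOf_dvd_of_pow_eq_one (by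
          rw [← toAdd_eq_zero, toAdd_pow, nsmul_eq_mul, ZMod.natCast_self, zero_mul]))
    have h2 : orderOf (Matrix.GeneralLinearGroup.det (φ c)) ∣ Nat.card K - 1 := by
      refine (orderOf_dvd_natCard _).trans ?_
      rw [Nat.card_units]
    exact Nat.eq_one_of_dvd_coprimes
      (Nat.Coprime.pow_left v (hr.out.coprime_iff_not_dvd.mpr hnd)) h1 h2
  refine ⟨{ toFun := fun c => ⟨((φ c : GL (Fin 2) K) : Matrix (Fin 2) (Fin 2) K),
              congrArg Units.val (hdet c)⟩
            map_one' := Subtype.ext (by simp)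
            map_mul' := fun c c' => Subtype.ext (by simp; rfl) }, fun c c' e => hφ ?_⟩
  exact Units.ext (congrArg Subtype.val e)

variable {F : Type*} [Field F]

/-- Block-diagonal copies of a subgroup of `Sp_{2e}` inside `Sp_{2(ae+b)}`. -/
theorem exists_pi_hom {H : Type*} [Group H] {e : ℕ}
    (ψ : H →* Matrix.symplecticGroup (Fin e) F) (hψ : Function.Injective ψ) (a b : ℕ) :
    ∃ φ : (Fin a → H) →* Matrix.symplecticGroup (Fin (a * e + b)) F, Function.Injective φ := by
  suffices ∀ a, ∃ φ : (Fin a → H) →* Matrix.symplecticGroup (Fin (a * e)) F, Function.Injective φ by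
    obtain ⟨φ, hφ⟩ := this a
    refine ⟨((CfsgLib.Classical.Symp.Blocks.blockSp (a * e) b F).comp (MonoidHom.inl _ _)).comp φ, ?_⟩
    refine CfsgLib.Classical.Symp.Blocks.blockSp_injective.comp ?_ |>.comp hφ
    intro x y hxy
    exact congrArg Prod.fst hxy
  intro a
  induction a with
  | zero => exact ⟨1, fun x y _ => funext fun i => i.elim0⟩
  | succ a ih =>
    obtain ⟨φ, hφ⟩ := ih
    rw [Nat.succ_mul]
    let split : (Fin (a + 1) → H) →* (Fin a → H) × H :=
      { toFun := fun c => (fun i => c i.castSucc, c (Fin.last a))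
        map_one' := rfl
        map_mul' := fun _ _ => rfl }
    refine ⟨((CfsgLib.Classical.Symp.Blocks.blockSp (a * e) e F).comp (φ.prodMap ψ)).comp split, ?_⟩
    intro c c' hcc'
    have hcc : ((fun i => c i.castSucc, c (Fin.last a)) : (Fin a → H) × H) =
        (fun i => c' i.castSucc, c' (Fin.last a)) :=
      (hφ.prodMap hψ) (CfsgLib.Classical.Symp.Blocks.blockSp_injective hcc')
    funext i
    refine Fin.lastCases ?_ (fun j => ?_) i
    · exact congrArg Prod.snd hcc
    · exact congrFun (congrArg Prod.fst hcc) j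

variable [Fintype F] {q r : ℕ} [hr : Fact r.Prime]

/-- A cyclic subgroup of order `r ^ v` in `Sp_{2e}(q)`. -/
theorem exists_hom_sp (hq : Fintype.card F = q) {e v : ℕ} (he : 0 < e)
    (h : r ^ v ∣ q ^ e - 1 ∨ (r ^ v ∣ (q ^ e) ^ 2 - 1 ∧ ¬ r ∣ q ^ e - 1)) :
    ∃ f : Multiplicative (ZMod (r ^ v)) →* Matrix.symplecticGroup (Fin e) F,
      Function.Injective f := by
  obtain ⟨p, hp⟩ := CharP.exists F
  have : Fact p.Prime := ⟨CharP.char_is_prime F p⟩
  have : NeZero e := ⟨he.ne'⟩
  let K := FiniteField.Extension F p e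
  have hK : Nat.card K = q ^ e := by
    rw [FiniteField.natCard_extension, Nat.card_eq_fintype_card, hq]
  obtain ⟨f, hf⟩ := exists_hom_sl2 (K := K) (r := r) (v := v) (by rw [hK]; exact h)
  let β : Module.Basis (Fin e) F K :=
    Module.finBasisOfFinrankEq F K (FiniteField.finrank_extension F p e)
  exact ⟨(CfsgLib.Classical.Symp.Blocks.sl2ToSp β).comp f,
    (CfsgLib.Classical.Symp.Blocks.sl2ToSp_injective β).comp hf⟩

omit [Fintype F] [Field F] in
theorem padicValNat_prod_sq_pow_sub_one (hq2 : 2 ≤ q) (hrq : ¬ r ∣ q) (hr2 : r ≠ 2) :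
    ∀ n, n < r → padicValNat r (∏ i ∈ Finset.range n, (q ^ (2 * (i + 1)) - 1)) =
      ((Finset.Icc 1 n).filter (fun i => orderOf (q : ZMod r) ∣ 2 * i)).card *
        padicValNat r (cyc q (orderOf (q : ZMod r))) := by
  intro n
  induction n with
  | zero => simp
  | succ n ih =>
    intro hn
    rw [Finset.prod_range_succ, padicValNat.mul
      (Finset.prod_ne_zero_iff.mpr fun i _ => pow_sub_one_ne_zero hq2 (by omega))
      (pow_sub_one_ne_zero hq2 (by omega)), ih (by omega),
      ← Finset.insert_Icc_right_eq_Icc_add_one (by omega : 1 ≤ n + 1), Finset.filter_insert]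
    by_cases hd : orderOf (q : ZMod r) ∣ 2 * (n + 1)
    · rw [if_pos hd, Finset.card_insert_of_notMem (by simp), add_mul, one_mul]
      obtain ⟨m, hm⟩ := hd
      rw [hm, padicValNat_pow_mul_sub_one hq2 hrq]
      intro hrm
      have h1 : r ∣ 2 * (n + 1) := hm ▸ hrm.mul_left _
      rcases hr.out.dvd_mul.mp h1 with h | h
      · exact hr2 ((Nat.prime_dvd_prime_iff_eq hr.out Nat.prime_two).mp h)
      · exact absurd (Nat.le_of_dvd (by omega) h) (by omega)
    · rw [if_neg hd, padicValNat_pow_sub_one_eq_zero (by omega) hd, add_zero]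

/-- `Sp_{2n}(q)`: the Sylow `r`-subgroups are homocyclic for odd `r > n`. -/
theorem sp_sylow_homocyclic (hq : Fintype.card F = q) {n : ℕ} (hr2 : r ≠ 2) (hrn : n < r)
    (hrq : ¬ r ∣ q) (P : Sylow r (Matrix.symplecticGroup (Fin n) F)) :
    Nonempty (↥(P : Subgroup (Matrix.symplecticGroup (Fin n) F)) ≃*
      (Fin ((Finset.Icc 1 n).filter (fun i => orderOf (q : ZMod r) ∣ 2 * i)).card → Cyc r q)) := by
  have hq2 : 2 ≤ q := hq ▸ Fintype.one_lt_card
  set d := orderOf (q : ZMod r) with hd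
  have hd0 : 0 < d := orderOf_pos_of_not_dvd hrq
  set v := padicValNat r (cyc q d) with hv
  have hv' : r ^ v ∣ q ^ d - 1 := pow_padicValNat_dvd.trans (cyc_dvd hq2 hd0)
  obtain ⟨e, he, hiff, h⟩ : ∃ e, 0 < e ∧ (∀ i, d ∣ 2 * i ↔ e ∣ i) ∧
      (r ^ v ∣ q ^ e - 1 ∨ (r ^ v ∣ (q ^ e) ^ 2 - 1 ∧ ¬ r ∣ q ^ e - 1)) := by
    rcases Nat.even_or_odd d with ⟨e, he⟩ | hodd
    · refine ⟨e, by omega, fun i => ?_, Or.inr ⟨?_, fun hh => ?_⟩⟩
      · rw [he, ← two_mul, Nat.mul_dvd_mul_iff_left two_pos]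
      · rwa [← pow_mul, mul_two, ← he]
      · have := Nat.le_of_dvd (by omega) ((dvd_pow_sub_one_iff (by omega) e).mp hh)
        rw [← hd] at this
        omega
    · exact ⟨d, hd0, fun i => hodd.coprime_two_right.dvd_mul_left, Or.inl hv'⟩
  set a := ((Finset.Icc 1 n).filter (fun i => d ∣ 2 * i)).card with ha
  have han : a = n / e := by
    rw [ha, ← Nat.Ioc_filter_dvd_card_eq_div n e]
    refine congrArg Finset.card (Finset.filter_congr (fun i _ => hiff i))
  obtain ⟨ψ, hψ⟩ := exists_hom_sp hq he h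
  obtain ⟨φ, hφ⟩ : ∃ φ : (Fin a → Cyc r q) →* Matrix.symplecticGroup (Fin n) F,
      Function.Injective φ := by
    have := exists_pi_hom ψ hψ (n / e) (n % e)
    rw [Nat.div_add_mod'] at this
    rw [han]
    exact this
  refine sylow_equiv_of_embedding φ hφ ?_ P
  have hvn : padicValNat r (Nat.card (Matrix.symplecticGroup (Fin n) F)) = a * v := by
    rw [CfsgLib.Classical.Symp.card_symplecticGroup, hq, padicValNat.mul
      (pow_ne_zero _ (by omega))
      (Finset.prod_ne_zero_iff.mpr fun i _ => pow_sub_one_ne_zero hq2 (by omega)),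
      padicValNat.eq_zero_of_not_dvd (fun hh => hrq (hr.out.dvd_of_dvd_pow hh)), zero_add,
      padicValNat_prod_sq_pow_sub_one hq2 hrq hr2 n hrn]
  rw [hvn, mul_comm, pow_mul, Nat.card_fun, Nat.card_eq_fintype_card (α := Fin _),
    Fintype.card_fin]
  simp [hv, hd]

end CfsgLib.Zsigmondy.SylowSymplectic
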